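import Mathlib
import Cfsg.Agent.H20.NWQ.TThree

/-!
# S4979: the `p`-part of the central character extends
-/

set_option autoImplicit false
set_option linter.style.haveILetI false
set_option linter.unusedSectionVars false

open Cfsg

namespace Cfsg.Agent.H20.NWQ

open Cfsg.Agent.Characters.Core Cfsg.Agent.Characters.Clifford Cfsg.Agent.H672
open Cfsg.Agent.H672.RM (over_lin_iff)
open Cfsg.Agent.H586.GW Cfsg.Agent.H37.NW Cfsg.Agent.CharDeep.IrrEquiv
open scoped commutatorElement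

universe u

variable {p q : ℕ} [hp : Fact p.Prime] {G : Type u} [Group G] [Finite G]
  {Z : Subgroup G} {l : Z →* ℂˣ}

/-- An irreducible character over a linear character of a central subgroup: the determinant. -/
theorem exists_det (hcen : Z ≤ Subgroup.center G) {χ : G → ℂ} (hχ : IsIrrCharacter G χ)
    (hov : Over Z.subtype χ (lf l)) :
    ∃ δ : G →* ℂˣ, ∀ z : Z, δ z = l z ^ charDegree χ := by
  classical
  rw [over_lin_iff Z.subtype (fun z => hcen z.2) hχ] at hov
  have h1n := Cfsg.Agent.Blocks.Basic.irr_one_eq_charDegree hχ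
  have h1p : charDegree χ ≠ 0 := (charDegree_pos hχ).ne'
  obtain ⟨n, ρ, hρ, rfl⟩ := hχ
  have hn : charDegree ρ.character = n := by
    have h2 : ρ.character 1 = (n : ℂ) := by
      rw [Representation.char_one, Module.finrank_fin_fun]
    rw [h2] at h1n
    exact (Nat.cast_injective h1n).symm
  refine ⟨detHom ρ, fun z => ?_⟩
  obtain ⟨c, hc⟩ := exists_smul_of_commute ρ hρ (ρ (z : G)) (by
    intro g
    rw [← map_mul, ← map_mul, Subgroup.mem_center_iff.1 (hcen z.2) g])
  have h3 : ρ.character (z : G) = c * n := by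
    rw [Representation.character, hc, map_smul, LinearMap.trace_one, Module.finrank_fin_fun,
      smul_eq_mul]
  have h4 := hov z
  change ρ.character (z : G) = _ at h4
  rw [h3, h1n, hn] at h4
  have h5 : (n : ℂ) ≠ 0 := by
    rw [hn] at h1p
    exact_mod_cast h1p
  have h6 : c = l z := by
    have h7 : (n : ℂ) * c = (n : ℂ) * ((l z : ℂˣ) : ℂ) := by rw [mul_comm, h4]
    exact mul_left_cancel₀ h5 h7
  apply Units.ext
  rw [detHom_apply, hc, LinearMap.det_smul, map_one, mul_one, Module.finrank_fin_fun, h6, hn,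
    Units.val_pow_eq_pow_val]

theorem exists_nu' (hcen : Z ≤ Subgroup.center G) (h : RelP p Z.subtype (lf l)) :
    ∃ ν : G →* ℂˣ, ∃ b : ℕ, ¬ p ∣ b ∧ ∀ z : Z, (l z * (ν z)⁻¹) ^ b = 1 := by
  classical
  obtain ⟨χ, hχ, hov⟩ := exists_over_inj Z.subtype Z.subtype_injective (isIrr_lf l)
  have hd := h χ hχ hov
  rw [charDegree_lf, mul_one] at hd
  obtain ⟨δ, hδ⟩ := exists_det hcen hχ hov
  obtain ⟨a, b, hb, hab⟩ := Nat.exists_eq_pow_mul_and_not_dvd (Nat.card_pos (α := Z)).ne' p
    hp.out.ne_one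
  have hc : Nat.Coprime (charDegree χ) (p ^ a) :=
    (Nat.Coprime.pow_left _ ((Nat.Prime.coprime_iff_not_dvd hp.out).2 hd)).symm
  obtain ⟨k, hk1, hk2⟩ := Nat.chineseRemainder hc.symm 1 0
  obtain ⟨m, rfl⟩ := (Nat.modEq_zero_iff_dvd).1 hk2
  refine ⟨δ ^ m, b, hb, fun z => ?_⟩
  have hlcard : l z ^ (p ^ a * b) = 1 := by
    rw [← hab, ← map_pow, pow_card_eq_one', map_one]
  rw [MonoidHom.pow_apply, hδ, ← pow_mul, mul_pow, inv_pow, mul_inv_eq_one, ← pow_mul]
  refine pow_eq_pow_iff_modEq.2 (Nat.ModEq.of_dvd (orderOf_dvd_of_pow_eq_one hlcard) ?_)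
  have h1 := (Nat.ModEq.mul_right' b hk1).symm
  rwa [one_mul] at h1

end Cfsg.Agent.H20.NWQ
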