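import Mathlib
import Cfsg.Agent.H20.NWQ.Nu

/-!
# S4979: structure of a minimal counterexample (central case)
-/

set_option autoImplicit false
set_option linter.style.haveILetI false
set_option linter.unusedSectionVars false

open Cfsg

namespace Cfsg.Agent.H20.NWQ

open Cfsg.Agent.Characters.Core Cfsg.Agent.Characters.Clifford Cfsg.Agent.H672
open Cfsg.Agent.H672.RM (over_lin_iff)
open Cfsg.Agent.H586.GW Cfsg.Agent.H37.NW
open scoped commutatorElement

universe u

/-- The minimal counterexample, central case. -/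
structure CtxQ (p q : ℕ) {G : Type u} [Group G] [Finite G] (Z : Subgroup G) (l : Z →* ℂˣ) :
    Prop where
  ne : p ≠ q
  cen : Z ≤ Subgroup.center G
  inj : Function.Injective l
  qZ : ¬ q ∣ Nat.card Z
  pZ : ¬ p ∣ Nat.card Z
  nps : ¬ IsPSolvable p G
  qs : IsPSolvable q G
  core : pPrimeCore q G = Z
  rel : RelP p Z.subtype (lf l)
  dvd : p ∣ Z.index
  ih : ∀ k < Z.index, T1q.{u} p q k

/-- The minimal counterexample, central case, before the removal of the `p`-part. -/
structure PreQ (p q : ℕ) {G : Type u} [Group G] [Finite G] (Z : Subgroup G) (l : Z →* ℂˣ) :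
    Prop where
  ne : p ≠ q
  cen : Z ≤ Subgroup.center G
  qZ : ¬ q ∣ Nat.card Z
  nps : ¬ IsPSolvable p G
  qs : IsPSolvable q G
  core : pPrimeCore q G = Z
  rel : RelP p Z.subtype (lf l)
  dvd : p ∣ Z.index
  ih : ∀ k < Z.index, T1q.{u} p q k

variable {p q : ℕ} [hp : Fact p.Prime] [hq : Fact q.Prime] {G : Type u} [Group G] [Finite G]
  {Z : Subgroup G} {l : Z →* ℂˣ}

theorem CtxQ.zn (C : CtxQ p q Z l) : Z.Normal := center_normal Z C.cen

theorem PreQ.zn (C : PreQ p q Z l) : Z.Normal := center_normal Z C.cen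

theorem CtxQ.low (C : CtxQ p q Z l) {M : Subgroup G} (hM : M.Normal) (hZM : Z ≤ M) (hMt : M ≠ ⊤) :
    ¬ p ∣ Z.relIndex M := by
  haveI := C.zn
  have h1 := relP_subgroupOf Z M hZM (C.rel.normal Z (isIrr_lf l) M hZM)
  have hcen : Z.subgroupOf M ≤ Subgroup.center M := by
    intro z hz
    rw [Subgroup.mem_center_iff]
    intro g
    exact Subtype.ext (Subgroup.mem_center_iff.1 (C.cen hz) (g : G))
  refine C.ih _ ?_ (Z.subgroupOf M) _ (isIrr_comp (Subgroup.subgroupOfEquivOfLe hZM).toMonoidHom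
      (Subgroup.subgroupOfEquivOfLe hZM).surjective (isIrr_lf l)) (inertia_central hcen _)
      (Cfsg.Agent.Lib.PSolvable.IsPSolvable_of_injective q C.qs M.subtype M.subtype_injective)
      ?_ rfl h1
  · have h4 : Z.relIndex M * M.index = Z.index := Subgroup.relIndex_mul_index hZM
    have h5 : M.index ≠ 1 := fun h => hMt (Subgroup.index_eq_one.1 h)
    have h6 : M.index ≠ 0 := Subgroup.index_ne_zero_of_finite
    have h7 : Z.relIndex M ≠ 0 := Subgroup.index_ne_zero_of_finite
    rw [← h4]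
    have h8 : 2 ≤ M.index := by omega
    nlinarith [Nat.pos_of_ne_zero h7]
  · have h2 := Cfsg.Agent.Lib.Cores.map_subtype_pPrimeCore q hM
    rw [C.core] at h2
    apply Subgroup.map_injective M.subtype_injective
    rw [h2, Subgroup.subgroupOf_map_subtype, inf_comm]

/-- a group with an abelian top factor and a `p'`-group over the centre below is `p`-solvable -/
theorem psolvable_of_abelian_top {K : Subgroup G} (hZ : Z ≤ Subgroup.center G) [K.Normal]
    (hZK : Z ≤ K) (hK : ¬ p ∣ Z.relIndex K) (hab : ∀ a b : G, ⁅a, b⁆ ∈ K) : IsPSolvable p G := by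
  haveI : Z.Normal := center_normal Z hZ
  have hcen : Z.subgroupOf K ≤ Subgroup.center K := by
    intro z hz
    rw [Subgroup.mem_center_iff]
    intro g
    exact Subtype.ext (Subgroup.mem_center_iff.1 (hZ hz) (g : G))
  haveI : (Z.subgroupOf K).Normal := center_normal _ hcen
  refine Cfsg.Agent.Lib.PSolvable.IsPSolvable_of_extension p K
    (psolvable_of_central (Z.subgroupOf K) hcen ?_) ?_
  · refine Cfsg.Agent.Lib.PSolvable.IsPSolvable_of_quotient p ⊤ (Or.inr ?_) ?_
    · rw [Subgroup.card_top]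
      exact ((Nat.Prime.coprime_iff_not_dvd hp.out).2 hK).symm
    · haveI : Subsingleton ((K ⧸ Z.subgroupOf K) ⧸ (⊤ : Subgroup (K ⧸ Z.subgroupOf K))) :=
        QuotientGroup.subsingleton_quotient_top
      haveI : Group.IsSolvable ((K ⧸ Z.subgroupOf K) ⧸ (⊤ : Subgroup (K ⧸ Z.subgroupOf K))) :=
        Group.isSolvable_of_comm (fun a b => Subsingleton.elim _ _)
      exact Cfsg.Agent.Lib.PSolvable.IsPSolvable_of_solvable p
  · haveI : Group.IsSolvable (G ⧸ K) := Group.isSolvable_of_comm (fun a b => by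
      obtain ⟨a, rfl⟩ := QuotientGroup.mk'_surjective K a
      obtain ⟨b, rfl⟩ := QuotientGroup.mk'_surjective K b
      rw [← commutatorElement_eq_one_iff_mul_comm, ← map_commutatorElement]
      exact (QuotientGroup.eq_one_iff _).2 (hab a b))
    exact Cfsg.Agent.Lib.PSolvable.IsPSolvable_of_solvable p

theorem CtxQ.exists_K (C : CtxQ p q Z l) : ∃ K : Subgroup G, K.Normal ∧ Z ≤ K ∧ p ∣ K.index ∧
    ¬ q ∣ K.index ∧ ¬ p ∣ Nat.card K ∧ (∀ M : Subgroup G, M.Normal → K ≤ M → M = K ∨ M = ⊤) ∧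
    ¬ ∀ a b : G, ⁅a, b⁆ ∈ K := by
  classical
  haveI := C.zn
  -- a maximal normal subgroup
  have hZt : Z ≠ ⊤ := by
    intro h
    have := C.dvd
    rw [h, Subgroup.index_top] at this
    exact hp.out.one_lt.ne' (Nat.dvd_one.1 this)
  obtain ⟨K, ⟨hKn, hZK, hKt⟩, hmax⟩ := WellFounded.has_min (wellFounded_gt (α := Subgroup G))
    {M : Subgroup G | M.Normal ∧ Z ≤ M ∧ M ≠ ⊤} ⟨Z, C.zn, le_rfl, hZt⟩
  haveI := hKn
  have hK1 := C.low hKn hZK hKt
  have hpK : p ∣ K.index := by
    have h4 : Z.relIndex K * K.index = Z.index := Subgroup.relIndex_mul_index hZK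
    have h5 := C.dvd
    rw [← h4] at h5
    exact (hp.out.dvd_mul.1 h5).resolve_left hK1
  have hbetween : ∀ M : Subgroup G, M.Normal → K ≤ M → M = K ∨ M = ⊤ := by
    intro M hM hKM
    by_contra hcon
    push Not at hcon
    exact hmax M ⟨hM, hZK.trans hKM, hcon.2⟩ (lt_of_le_of_ne hKM hcon.1.symm)
  have hpcK : ¬ p ∣ Nat.card K := by
    have h1 : Nat.card Z * Z.relIndex K = Nat.card K := by
      have := Subgroup.relIndex_mul_relIndex ⊥ Z K bot_le hZK
      rwa [Subgroup.relIndex_bot_left, Subgroup.relIndex_bot_left] at this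
    rw [← h1]
    intro h
    exact (hp.out.dvd_mul.1 h).elim C.pZ hK1
  refine ⟨K, hKn, hZK, hpK, ?_, hpcK, hbetween, fun hab =>
    C.nps (psolvable_of_abelian_top C.cen hZK hK1 hab)⟩
  -- `G / K` is a `q'`-group
  haveI : Nontrivial (G ⧸ K) := QuotientGroup.nontrivial_iff.2 hKt
  have hsimp : ∀ M : Subgroup (G ⧸ K), M.Normal → M = ⊥ ∨ M = ⊤ := by
    intro M hM
    have h1 := hbetween (M.comap (QuotientGroup.mk' K)) (hM.comap _) (by
      intro x hx
      show (QuotientGroup.mk' K x) ∈ M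
      have : QuotientGroup.mk' K x = 1 := (QuotientGroup.eq_one_iff x).2 hx
      rw [this]
      exact one_mem M)
    rcases h1 with h | h
    · left
      rw [← Subgroup.map_comap_eq_self_of_surjective (QuotientGroup.mk'_surjective K) M, h,
        Subgroup.map_eq_bot_iff, QuotientGroup.ker_mk']
    · right
      rw [← Subgroup.map_comap_eq_self_of_surjective (QuotientGroup.mk'_surjective K) M, h]
      exact Subgroup.map_top_of_surjective _ (QuotientGroup.mk'_surjective K)
  have hqs : IsPSolvable q (G ⧸ K) :=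
    Cfsg.Agent.Lib.PSolvable.IsPSolvable_of_surjective q C.qs _ (QuotientGroup.mk'_surjective K)
  have hcardQ : Nat.card (G ⧸ K) = K.index := rfl
  rcases Cfsg.Agent.PLocal.Constrained.pCore_or_pPrimeCore_ne_bot hqs with h | h
  · exfalso
    have h1 := (hsimp _ (Cfsg.Agent.Lib.Cores.pCore_normal q)).resolve_left h
    have hqg : IsPGroup q (G ⧸ K) := (Cfsg.Agent.Lib.Cores.pCore_eq_top_iff q).1 h1
    obtain ⟨k, hk⟩ := IsPGroup.iff_card.1 hqg
    rw [hcardQ] at hk
    rw [hk] at hpK
    exact C.ne ((Nat.prime_dvd_prime_iff_eq hp.out hq.out).1 (hp.out.dvd_of_dvd_pow hpK))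
  · have h1 := (hsimp _ (Cfsg.Agent.Lib.Cores.pPrimeCore_normal q)).resolve_left h
    have h2 := Cfsg.Agent.Lib.Cores.pPrimeCore_coprime (G := G ⧸ K) q
    rw [h1, Subgroup.card_top, hcardQ] at h2
    exact (Nat.Prime.coprime_iff_not_dvd hq.out).1 h2.symm

end Cfsg.Agent.H20.NWQ
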