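import Mathlib
import Cfsg.Agent.H586.GW.CoreDef
import Cfsg.Prelude.Def_Local

/-!
# S4979: the core situation with a nonabelian simple top factor
-/

set_option autoImplicit false

open Cfsg
open scoped commutatorElement

namespace Cfsg.Agent.H20.NWQ

universe u

/-- The core situation of a minimal counterexample to `S4979` which is not `p`-solvable:
`H` acts irreducibly on the elementary abelian `q`-group `V` with kernel `N`, a central
`{p, q}'`-subgroup carrying the faithful linear character `φ`; `K` is the largest proper normal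
subgroup over `N`, it has order prime to `p`, and `H / K` is a nonabelian simple `q'`-group of order
divisible by `p`. -/
structure CoreQ (p q : ℕ) {H V : Type*} [Group H] [Finite H] [AddCommGroup V] [Finite V]
    [DistribMulAction H V] (K N : Subgroup H) (φ : N →* ℂˣ) : Prop where
  ne : p ≠ q
  odd : p ≠ 2
  qs : IsPSolvable q H
  nK : K.Normal
  /-- `H / K` is simple -/
  max : ∀ M : Subgroup H, M.Normal → K ≤ M → M = K ∨ M = ⊤
  /-- `H / K` is not abelian -/
  nab : ¬ ∀ a b : H, ⁅a, b⁆ ∈ K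
  dvd : p ∣ K.index
  qtop : ¬ q ∣ K.index
  cop : ¬ p ∣ Nat.card K
  cen : N ≤ Subgroup.center H
  NK : N ≤ K
  qN : ¬ q ∣ Nat.card N
  inj : Function.Injective φ
  exp : ∀ v : V, q • v = 0
  nt : Nontrivial V
  ker : ∀ h : H, (∀ v : V, h • v = v) ↔ h ∈ N
  irr : ∀ W : AddSubgroup V, (∀ h : H, ∀ w ∈ W, h • w ∈ W) → W = ⊥ ∨ W = ⊤
  gen : ∀ M : Subgroup H, M.Normal → N ≤ M → ¬ M ≤ K → M = ⊤
  /-- every vector is fixed by a Sylow `p`-subgroup of `H` -/
  P1 : ∀ v : V, ¬ p ∣ (MulAction.stabilizer H v).index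
  /-- the characters of the stabilisers over `φ` have degree prime to `p` -/
  P2 : ∀ (v : V) (ψ : ↥(MulAction.stabilizer H v) → ℂ),
    IsIrrCharacter ↥(MulAction.stabilizer H v) ψ →
    (∀ n (hn : n ∈ N) (hn' : n ∈ MulAction.stabilizer H v), ψ ⟨n, hn'⟩ = ψ 1 * φ ⟨n, hn⟩) →
    ¬ p ∣ charDegree ψ

/-- The core situation does not occur. -/
def NoCoreQ (p q : ℕ) : Prop :=
  ∀ {H V : Type u} [Group H] [Finite H] [AddCommGroup V] [Finite V] [DistribMulAction H V]
    (K N : Subgroup H) (φ : N →* ℂˣ), ¬ CoreQ (V := V) p q K N φ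

end Cfsg.Agent.H20.NWQ
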