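import Mathlib
import Cfsg.Agent.H20.NWQ.CoreNW

/-!
# S4979: the theorem from the non-existence of the core situation
-/

set_option autoImplicit false
set_option linter.style.haveILetI false
set_option linter.unusedSectionVars false

open Cfsg

namespace Cfsg.Agent.H20.NWQ

open Cfsg.Agent.Characters.Core Cfsg.Agent.Characters.Clifford Cfsg.Agent.H672
open Cfsg.Agent.H672.RM (over_lin_iff)
open Cfsg.Agent.H586.GW Cfsg.Agent.H37.NW
open scoped commutatorElement

universe u

section
variable {p q : ℕ} [hp : Fact p.Prime] [hq : Fact q.Prime] {G : Type u} [Group G] [Finite G]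
  {Z : Subgroup G} {l : Z →* ℂˣ}

theorem exists_ctxQ (C : PreQ p q Z l) {b : ℕ} (hb : ¬ p ∣ b) (hl : ∀ z, l z ^ b = 1) :
    ∃ (Q : Type u) (_ : Group Q) (_ : Finite Q) (Z' : Subgroup Q) (l' : Z' →* ℂˣ),
      CtxQ p q Z' l' := by
  classical
  have hZ := C.cen
  haveI := C.zn
  let K : Subgroup G := l.ker.map Z.subtype
  have hKZ : K ≤ Z := by
    rintro _ ⟨z, -, rfl⟩
    exact z.2
  haveI hK : K.Normal := center_normal K (hKZ.trans hZ)
  let mk : G →* G ⧸ K := QuotientGroup.mk' K
  have hmk : Function.Surjective mk := QuotientGroup.mk'_surjective K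
  have hkq : mk.ker = K := QuotientGroup.ker_mk' K
  let Z' : Subgroup (G ⧸ K) := Z.map mk
  have hcomap : Z'.comap mk = Z := by
    rw [Subgroup.comap_map_eq, hkq, sup_eq_left.2 hKZ]
  have hZ' : Z' ≤ Subgroup.center (G ⧸ K) := by
    rintro _ ⟨z, hz, rfl⟩
    rw [Subgroup.mem_center_iff]
    intro x
    obtain ⟨x, rfl⟩ := hmk x
    rw [← map_mul, ← map_mul, Subgroup.mem_center_iff.1 (hZ hz) x]
  let f : Z →* Z' := (mk.comp Z.subtype).codRestrict Z' (fun z => ⟨z, z.2, rfl⟩)
  have hf : Function.Surjective f := by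
    rintro ⟨_, z, hz, rfl⟩
    exact ⟨⟨z, hz⟩, rfl⟩
  have hkf : f.ker ≤ l.ker := by
    intro z hz
    have h1 : mk (z : G) = 1 := congrArg Subtype.val (MonoidHom.mem_ker.1 hz)
    have h2 : (z : G) ∈ K := by rw [← hkq]; exact MonoidHom.mem_ker.2 h1
    obtain ⟨w, hw, hwz⟩ := h2
    have : w = z := Subtype.ext hwz
    rwa [← this]
  let l' : Z' →* ℂˣ := f.liftOfSurjective hf ⟨l, hkf⟩
  have hl' : ∀ z, l' (f z) = l z := fun z => MonoidHom.liftOfRightInverse_comp_apply _ _ _ _ _
  have hinj : Function.Injective l' := by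
    rw [injective_iff_map_eq_one]
    intro z hz
    obtain ⟨z, rfl⟩ := hf z
    rw [hl'] at hz
    apply Subtype.ext
    change mk (z : G) = 1
    rw [← MonoidHom.mem_ker, hkq]
    exact ⟨z, hz, rfl⟩
  have hidx : Z'.index = Z.index := Subgroup.index_map_eq Z hmk (by rw [hkq]; exact hKZ)
  refine ⟨G ⧸ K, inferInstance, inferInstance, Z', l', C.ne, hZ', hinj, ?_, ?_,
    fun h => C.nps (psolvable_of_central K (hKZ.trans hZ) h),
    Cfsg.Agent.Lib.PSolvable.IsPSolvable_of_surjective q C.qs mk hmk, ?_, ?_, ?_, ?_⟩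
  · intro h
    exact C.qZ (h.trans (Subgroup.card_map_dvd Z mk))
  · intro h
    obtain ⟨z, hz⟩ := exists_prime_orderOf_dvd_card' (G := Z') p h
    have h1 : z ^ p = 1 := orderOf_dvd_iff_pow_eq_one.1 (dvd_of_eq hz)
    have h2 : l' z ^ p = 1 := by rw [← map_pow, h1, map_one]
    have h3 : l' z ^ b = 1 := by
      obtain ⟨y, rfl⟩ := hf z
      rw [hl']
      exact hl y
    have h4 := pow_gcd_eq_one.2 ⟨h2, h3⟩
    rw [((Nat.Prime.coprime_iff_not_dvd hp.out).2 hb).gcd_eq_one, pow_one] at h4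
    have h5 : z = 1 := hinj (by rw [h4, map_one])
    rw [h5, orderOf_one] at hz
    exact hp.out.one_lt.ne hz
  · -- the core
    apply le_antisymm
    · have hE : (pPrimeCore q (G ⧸ K)).Normal := Cfsg.Agent.Lib.Cores.pPrimeCore_normal q
      have hEc : (Nat.card (pPrimeCore q (G ⧸ K))).Coprime q :=
        Cfsg.Agent.Lib.Cores.pPrimeCore_coprime (G := G ⧸ K) q
      have h1 : (pPrimeCore q (G ⧸ K)).comap mk ≤ pPrimeCore q G := by
        refine Cfsg.Agent.Lib.Cores.le_pPrimeCore (hE.comap mk) ?_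
        have h2 : Nat.card ((pPrimeCore q (G ⧸ K)).comap mk) =
            Nat.card K * Nat.card (pPrimeCore q (G ⧸ K)) := by
          have hKE : K ≤ (pPrimeCore q (G ⧸ K)).comap mk := by
            intro x hx
            show mk x ∈ pPrimeCore q (G ⧸ K)
            have : mk x = 1 := (QuotientGroup.eq_one_iff x).2 hx
            rw [this]
            exact one_mem _
          have h3 := Subgroup.relIndex_mul_relIndex ⊥ K _ bot_le hKE
          rw [Subgroup.relIndex_bot_left, Subgroup.relIndex_bot_left] at h3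
          rw [← h3]
          congr 1
          have h4 : (⊥ : Subgroup (G ⧸ K)).comap mk = K := by
            rw [MonoidHom.comap_bot, hkq]
          have h5 := Subgroup.relIndex_comap (⊥ : Subgroup (G ⧸ K)) mk
            ((pPrimeCore q (G ⧸ K)).comap mk)
          rw [h4, Subgroup.map_comap_eq_self_of_surjective hmk, Subgroup.relIndex_bot_left] at h5
          exact h5
        rw [h2]
        refine Nat.Coprime.mul_left ?_ hEc
        refine Nat.Coprime.coprime_dvd_left (Subgroup.card_dvd_of_le hKZ) ?_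
        exact ((Nat.Prime.coprime_iff_not_dvd hq.out).2 C.qZ).symm
      rw [C.core] at h1
      rw [← Subgroup.map_comap_eq_self_of_surjective hmk (pPrimeCore q (G ⧸ K))]
      exact Subgroup.map_mono h1
    · haveI : Z'.Normal := center_normal Z' hZ'
      refine Cfsg.Agent.Lib.Cores.le_pPrimeCore inferInstance ?_
      refine Nat.Coprime.coprime_dvd_left (Subgroup.card_map_dvd Z mk) ?_
      exact ((Nat.Prime.coprime_iff_not_dvd hq.out).2 C.qZ).symm
  · intro χ hχ hov hd
    have h1 : IsIrrCharacter G (χ ∘ mk) := isIrr_comp mk hmk hχ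
    refine C.rel (χ ∘ mk) h1 ?_ ?_
    · rw [over_lin_iff Z.subtype (fun z => hZ z.2) h1]
      rw [over_lin_iff Z'.subtype (fun z => hZ' z.2) hχ] at hov
      intro z
      have h2 := hov (f z)
      rw [hl'] at h2
      change χ (mk z) = χ (mk 1) * _
      rw [map_one]
      exact h2
    · rw [charDegree_comp_one, charDegree_lf]
      rwa [charDegree_lf] at hd
  · rw [hidx]; exact C.dvd
  · rw [hidx]; exact C.ih

theorem PreQ.false (h : NoCoreQ.{u} p q) (hodd : p ≠ 2) (C : PreQ p q Z l) : False := by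
  obtain ⟨ν, b, hb, hν⟩ := exists_nu' C.cen C.rel
  let l' : Z →* ℂˣ := l * (ν.comp Z.subtype)⁻¹
  have hl' : ∀ z : Z, l' z = l z * (ν z)⁻¹ := fun _ => rfl
  have C' : PreQ p q Z l' := ⟨C.ne, C.cen, C.qZ, C.nps, C.qs, C.core,
    relP_twist C.cen C.rel ν l' hl', C.dvd, C.ih⟩
  obtain ⟨Q, i1, i2, Z', l'', C''⟩ := exists_ctxQ C' hb hν
  exact C''.false h hodd

end

/-- `S4986`. -/
def F4986 : Prop := ∀ {G : Type u} [Group G] [Finite G] (N : Subgroup G) [N.Normal]
  (φ : Cfsg.IrrCharacter ↥N)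
  (_ : ∀ (g : G) (n m : ↥N), (m : G) = g * n * g⁻¹ → (φ : ↥N → ℂ) m = (φ : ↥N → ℂ) n)
  (_ : ∀ χ : Cfsg.IrrCharacter G,
    (∑ᶠ n : ↥N, (χ : G → ℂ) n * (starRingEnd ℂ) ((φ : ↥N → ℂ) n)) ≠ 0 →
      Odd (Cfsg.charDegree (χ : G → ℂ) / Cfsg.charDegree (φ : ↥N → ℂ))),
  Group.IsSolvable (G ⧸ N)

variable {p q : ℕ} [hp : Fact p.Prime] [hq : Fact q.Prime]

/-- The theorem for invariant characters. -/
theorem t1q_of_noCoreQ (h : p ≠ 2 → NoCoreQ.{u} p q) (hT1 : ∀ n, T1.{u} p q n)
    (h2 : F4986.{u}) (hpq : p ≠ q) (n : ℕ) : T1q.{u} p q n := by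
  induction n using Nat.strong_induction_on with
  | _ n ih =>
    intro G _ _ N _ θ hθ hinv hqs hN hn hrel hdvd
    obtain ⟨Δ, Q, i1, i2, i3, π, m, Z, l, hπ, hm, hc, hZc, h1, h3⟩ :=
      exists_triple' (p := p) N hθ hinv
    have hqZ : ¬ q ∣ Nat.card Z := by
      intro hd
      have h3 := h3 q hq.out hd
      rw [← hN] at h3
      have h4 := Nat.dvd_gcd h3 (dvd_refl q)
      rw [(Cfsg.Agent.Lib.Cores.pPrimeCore_coprime (G := G) q : (Nat.card _).Coprime q)] at h4
      exact hq.out.one_lt.ne' (Nat.dvd_one.1 h4)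
    have hidx : Z.index = n := by
      rw [← hn, ← Subgroup.index_comap_of_surjective N hπ, hc,
        Subgroup.index_comap_of_surjective Z hm]
    have hqs' : IsPSolvable q Q := psolvable_transfer hπ hm hc hZc
      (Cfsg.Agent.Lib.PSolvable.IsPSolvable_of_surjective q hqs _ (QuotientGroup.mk'_surjective N))
    have hcore := core_transfer hπ hm hc hZc hN hqZ
    have hrel' := h1 hrel
    haveI hZn : Z.Normal := center_normal Z hZc
    by_cases hps : IsPSolvable p Q
    · exact hT1 n Z (lf l) (isIrr_lf l) (inertia_central hZc _) hps hqs' hcore hidx hrel' hdvd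
    · by_cases hp2 : p = 2
      · apply hps
        refine psolvable_of_central Z hZc ?_
        haveI : Group.IsSolvable (Q ⧸ Z) := by
          refine h2 Z ⟨lf l, isIrr_lf l⟩ ?_ ?_
          · intro g z w hzw
            have h4 : w = z := by
              apply Subtype.ext
              rw [hzw, Subgroup.mem_center_iff.1 (hZc z.2) g, mul_inv_cancel_right]
            rw [h4]
          · intro χ hχ
            have h4 : Over Z.subtype (χ : Q → ℂ) (lf l) :=
              (Cfsg.Agent.H672.RM.over_iff_finsum Z.subtype χ (lf l)).2 hχ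
            have h5 := hrel' χ χ.2 h4
            change Odd (charDegree (χ : Q → ℂ) / charDegree (lf l))
            rw [charDegree_lf, mul_one, hp2] at h5
            rw [charDegree_lf, Nat.div_one, ← Nat.not_even_iff_odd, even_iff_two_dvd]
            exact h5
        exact Cfsg.Agent.Lib.PSolvable.IsPSolvable_of_solvable p
      · exact PreQ.false (h hp2) hp2 ⟨hpq, hZc, hqZ, hps, hqs', hcore, hrel',
          by rw [hidx]; exact hdvd, by rw [hidx]; exact ih⟩

omit hp hq in
/-- `S4979` from the core. -/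
theorem s4979_of_noCoreQ {G : Type u} [Group G] [Finite G] (p q : ℕ) [Fact p.Prime] [Fact q.Prime]
    (hcore : p ≠ 2 → NoCoreQ.{u} p q) (hS : NoCoreS.{u} p q) (h2 : F4986.{u}) (hpq : p ≠ q)
    (hsolvq : Cfsg.IsPSolvable q G) (M : Ideal Cfsg.AlgInt) (hM : Cfsg.IsPModular q M)
    (B : Set (Cfsg.IrrCharacter G)) (hB : Cfsg.IsPBlock M B) (Q : Subgroup G)
    (hQ : Cfsg.IsDefectGroup q M B Q) (hdeg : ∀ χ ∈ B, ¬ p ∣ Cfsg.charDegree (χ : G → ℂ)) :
    ∃ P : Sylow p G, Q ≤ Subgroup.normalizer ((P : Subgroup G) : Set G) := by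
  refine reduce (p := p) (q := q) hpq (fun G _ => IsPSolvable q G) ?_ ?_ ?_
    (Nat.card G) G rfl hsolvq M hM B hB Q hQ hdeg
  · intro G _ H h2
    exact Cfsg.Agent.Lib.PSolvable.IsPSolvable_of_injective q h2 H.subtype H.subtype_injective
  · intro G _ _ h2
    exact h2
  · intro G _ _ hq2 θ hinv hD
    haveI : (pPrimeCore q G).Normal := Cfsg.Agent.Lib.Cores.pPrimeCore_normal q
    refine t1q_of_noCoreQ hcore (t1_of_noCore hS hpq) h2 hpq (pPrimeCore q G).index (pPrimeCore q G)
      (θ : _ → ℂ) θ.2 ?_ hq2 rfl rfl ?_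
    · rw [eq_top_iff]
      intro g _
      rw [mem_inertia_iff]
      intro n
      exact hinv g n
    · intro χ hχ hov hd
      let _ := Fintype.ofFinite (pPrimeCore q G)
      rw [over_iff] at hov
      exact hD ⟨χ, hχ⟩ hov ((dvd_mul_right _ _).trans hd)

end Cfsg.Agent.H20.NWQ
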